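import Cfsg.Agent.Lib.Helper73.SPO.Defs

/-!
# Ladder SPO (S3421), rung CNT1: the Sylow `p`-subgroups have order `q`.
-/

set_option autoImplicit false

namespace Cfsg.Agent.Lib.Helper73.SPO

variable {G : Type*} [Group G] [Finite G] {p q : ℕ}

theorem card_sylow [Fact p.Prime] (H : Hyp G p q) (P : Sylow p G) :
    Nat.card (P : Subgroup G) = q := by
  obtain ⟨f, hf, hq⟩ := H.hq
  have hnd : ¬ p ∣ 2 * ((q - 1) / 2) * ((q + 1) / 2) := by
    intro h
    rcases (Nat.Prime.dvd_mul H.hp).mp h with h | h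
    · rw [H.two_mul_a] at h; exact H.not_dvd_sub h
    · exact H.not_dvd_b h
  have hq0 : q ≠ 0 := by have := H.hq5; omega
  have h0 : 2 * ((q - 1) / 2) * ((q + 1) / 2) ≠ 0 := by
    intro h; rw [h] at hnd; exact hnd (dvd_zero p)
  have h1 : (Nat.card G).factorization p = f := by
    rw [H.card', Nat.factorization_mul hq0 h0, Finsupp.add_apply,
      Nat.factorization_eq_zero_of_not_dvd hnd, add_zero, hq, H.hp.factorization_pow]
    simp
  rw [Sylow.card_eq_multiplicity, h1, hq]

end Cfsg.Agent.Lib.Helper73.SPO
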