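import Cfsg.Agent.Lib.Helper73.SPO.CNT1
import Cfsg.Agent.Lib.Helper96.TIC.Free

/-!
# Ladder SPO (S3421), rung CNT2 (core, with TI as a hypothesis): there are `q + 1` Sylow `p`-subgroups.
-/

set_option autoImplicit false

namespace Cfsg.Agent.Lib.Helper73.SPO

variable {G : Type*} [Group G] [Finite G] {p q : ℕ}

/-- A group fixing a point and acting freely off it has order dividing `|α| - 1`. -/
theorem cnt2_free {D α : Type*} [Group D] [MulAction D α] [Finite α] (a : α)
    (hfix : ∀ d : D, d • a = a)
    (hf : ∀ d : D, ∀ y : α, y ≠ a → d • y = y → d = 1) : Nat.card D ∣ Nat.card α - 1 := by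
  classical
  let S : SubMulAction D α :=
    { carrier := {y | y ≠ a}
      smul_mem' := by
        intro d y hy h
        apply hy
        have : d⁻¹ • (d • y) = d⁻¹ • a := by rw [h]
        rw [inv_smul_smul, hfix] at this
        exact this }
  have hst : ∀ y : S, MulAction.stabilizer D y = ⊥ := by
    intro y
    rw [eq_bot_iff]
    intro d hd
    rw [Subgroup.mem_bot]
    have h1 : d • (y : α) = y := congrArg Subtype.val (MulAction.mem_stabilizer_iff.mp hd)
    exact hf d y y.2 h1
  have e := MulAction.selfEquivOrbitsQuotientProd hst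
  have h1 : Nat.card S = Nat.card α - 1 := by
    have h2 : Nat.card S = Nat.card ↥({a}ᶜ : Set α) := rfl
    rw [h2, Nat.card_coe_set_eq, Set.ncard_compl, Set.ncard_singleton]
  rw [← h1, Nat.card_congr e, Nat.card_prod]
  exact Dvd.intro_left _ rfl

/-- a `p`-element of `N(P)` lies in `P`. -/
theorem cnt2_mem [Fact p.Prime] (P : Sylow p G) {x : G} (hx : x ^ p = 1)
    (hxN : x ∈ Subgroup.normalizer ((P : Subgroup G) : Set G)) : x ∈ (P : Subgroup G) := by
  have hz : IsPGroup p (Subgroup.zpowers x) := by
    rw [IsPGroup.iff_card]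
    rw [Nat.card_zpowers]
    have : orderOf x ∣ p ^ 1 := by rw [pow_one]; exact orderOf_dvd_of_pow_eq_one hx
    obtain ⟨j, _, hj⟩ := (Nat.dvd_prime_pow Fact.out).mp this
    exact ⟨j, hj⟩
  have h := hz.inf_normalizer_sylow P
  have h1 : x ∈ Subgroup.zpowers x ⊓ Subgroup.normalizer ((P : Subgroup G) : Set G) :=
    ⟨Subgroup.mem_zpowers x, hxN⟩
  have h2 : x ∈ Subgroup.zpowers x ⊓ (P : Subgroup G) := h ▸ h1
  exact h2.2

theorem cnt2_arith {q k n : ℕ} (hq5 : 5 ≤ q) (hk : k ∣ q - 1) (hn : q ∣ n - 1) (hn0 : 0 < n)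
    (h : 2 * (n * (q * k)) = q * (q - 1) * (q + 1)) : n = q + 1 := by
  obtain ⟨c, hc⟩ := hk
  obtain ⟨m, hm⟩ := hn
  have hn' : n = 1 + q * m := by omega
  have hk0 : 0 < k := by
    rcases Nat.eq_zero_or_pos k with h0 | h0
    · rw [h0, zero_mul] at hc; omega
    · exact h0
  have hc0 : 0 < c := by
    rcases Nat.eq_zero_or_pos c with h0 | h0
    · rw [h0, mul_zero] at hc; omega
    · exact h0
  have hcq : c ≤ q - 1 := by
    rw [hc]; exact Nat.le_mul_of_pos_left c hk0
  have h2 : 2 * n = c * (q + 1) := by
    have h3 : (q * k) * (2 * n) = (q * k) * (c * (q + 1)) := by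
      calc (q * k) * (2 * n) = 2 * (n * (q * k)) := by ring
        _ = q * (q - 1) * (q + 1) := h
        _ = q * (k * c) * (q + 1) := by rw [hc]
        _ = (q * k) * (c * (q + 1)) := by ring
    exact Nat.eq_of_mul_eq_mul_left (Nat.mul_pos (by omega) hk0) h3
  rw [hn'] at h2
  have h4 : 2 + 2 * m * q = c * q + c := by linarith
  rcases lt_trichotomy c (2 * m) with h5 | h5 | h5
  · have h6 : (c + 1) * q ≤ 2 * m * q := Nat.mul_le_mul_right q h5
    have h7 : (c + 1) * q = c * q + q := by ring
    omega
  · rw [← h5] at h4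
    have hc2 : c = 2 := by omega
    rw [hn']
    have hm1 : m = 1 := by omega
    rw [hm1]; omega
  · have h6 : (2 * m + 1) * q ≤ c * q := Nat.mul_le_mul_right q h5
    have h7 : (2 * m + 1) * q = 2 * m * q + q := by ring
    omega

theorem card_quot_of [Fact p.Prime] (H : Hyp G p q)
    (hti : ∀ P₁ P₂ : Sylow p G, (P₁ : Subgroup G) ⊓ (P₂ : Subgroup G) ≠ ⊥ → P₁ = P₂)
    (P : Sylow p G) :
    Nat.card (G ⧸ Subgroup.normalizer ((P : Subgroup G) : Set G)) = q + 1 := by
  classical
  set N : Subgroup G := Subgroup.normalizer ((P : Subgroup G) : Set G) with hN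
  have hPN : (P : Subgroup G) ≤ N := Subgroup.le_normalizer
  have hcP : Nat.card (P : Subgroup G) = q := card_sylow H P
  -- complement
  have : ((P : Subgroup G).subgroupOf N).Normal := Subgroup.normal_in_normalizer
  have hcs : Nat.card ((P : Subgroup G).subgroupOf N) = q := by
    rw [← hcP]; exact Nat.card_congr (Subgroup.subgroupOfEquivOfLe hPN).toEquiv
  have hcop : Nat.Coprime (Nat.card ((P : Subgroup G).subgroupOf N))
      ((P : Subgroup G).subgroupOf N).index := by
    rw [hcs, ← hcP]
    refine Nat.Coprime.coprime_dvd_right ?_ P.card_coprime_index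
    exact Dvd.intro _ (Subgroup.relIndex_mul_index hPN)
  obtain ⟨K', hK'⟩ := Subgroup.exists_right_complement'_of_coprime hcop
  have hcard := hK'.card_mul_card
  rw [hcs] at hcard
  set K : Subgroup G := K'.map N.subtype with hK
  have hcK : Nat.card K = Nat.card K' :=
    Nat.card_congr (K'.equivMapOfInjective N.subtype N.subtype_injective).symm.toEquiv
  have hKN : K ≤ N := by
    rintro _ ⟨y, _, rfl⟩
    exact y.2
  have hKp : (Nat.card K).Coprime p := by
    rw [hcK]
    have h1 : Nat.card K' = ((P : Subgroup G).subgroupOf N).index := by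
      have := ((P : Subgroup G).subgroupOf N).card_mul_index
      rw [hcs, ← hcard] at this
      exact (Nat.eq_of_mul_eq_mul_left (by have := H.hq5; omega) this).symm
    rw [h1]
    rw [hcs] at hcop
    exact (Nat.Coprime.coprime_dvd_left H.p_dvd_q hcop).symm
  have hk : Nat.card K ∣ q - 1 := by
    rw [← hcP]
    apply Cfsg.Agent.Lib.Helper96.TIC.free_dvd K (P : Subgroup G)
    · intro d hd x hx
      exact (Subgroup.mem_normalizer_iff.mp (hKN hd) x).mp hx
    · intro d hd x hx hx1 hdx
      refine H.cpp' (H.pow_p_of_mem P.2 hx) hx1 ?_ ?_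
      · change x * d = d * x
        calc x * d = (d * x * d⁻¹) * d := by rw [hdx]
          _ = d * x := by group
      · exact Nat.Coprime.coprime_dvd_left (Subgroup.orderOf_dvd_natCard K hd) hKp
  have hn : q ∣ Nat.card (G ⧸ N) - 1 := by
    rw [← hcP]
    apply cnt2_free (D := (P : Subgroup G)) (((1 : G) : G ⧸ N))
    · intro d
      change (((d : G) * 1 : G) : G ⧸ N) = _
      rw [QuotientGroup.eq]
      simpa using hPN d.2
    · intro d y
      induction y using QuotientGroup.induction_on with
      | H g =>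
        intro hy hdy
        by_contra hd1
        apply hy
        have h1 : (((d : G) * g : G) : G ⧸ N) = (g : G ⧸ N) := hdy
        rw [QuotientGroup.eq] at h1
        have h2 : g⁻¹ * (d : G) * g ∈ N := by
          have := N.inv_mem h1
          simpa [mul_assoc] using this
        have h3 : g⁻¹ * (d : G) * g ∈ (P : Subgroup G) := by
          apply cnt2_mem P _ h2
          have : (g⁻¹ * (d : G) * g) ^ p = g⁻¹ * (d : G) ^ p * g := by
            have := conj_pow (a := g⁻¹) (b := (d : G)) (i := p)
            simpa using this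
          rw [this, H.pow_p_of_mem P.2 d.2]; simp
        -- d ∈ P ⊓ g P g⁻¹
        have h4 : (d : G) ∈ ((g • P : Sylow p G) : Subgroup G) := by
          rw [Sylow.coe_subgroup_smul, Subgroup.mem_pointwise_smul_iff_inv_smul_mem]
          simpa [MulAut.smul_def, MulAut.conj_apply] using h3
        have h5 : P = g • P := by
          apply hti
          intro hbot
          have : (d : G) ∈ (P : Subgroup G) ⊓ ((g • P : Sylow p G) : Subgroup G) := ⟨d.2, h4⟩
          rw [hbot, Subgroup.mem_bot] at this
          exact hd1 (Subtype.ext this)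
        have h6 : g ∈ N := Sylow.smul_eq_iff_mem_normalizer.mp h5.symm
        rw [QuotientGroup.eq]
        simpa using N.inv_mem h6
  have hG : Nat.card G = Nat.card (G ⧸ N) * Nat.card N :=
    Subgroup.card_eq_card_quotient_mul_card_subgroup N
  apply cnt2_arith H.hq5 hk hn Nat.card_pos
  rw [hcK, hcard, ← hG, H.card]

end Cfsg.Agent.Lib.Helper73.SPO
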