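import Mathlib
import Cfsg.Prelude.Def_LieExceptional

/-!
# Ladder SPO (S3421): a finite group with the order and the spectrum of `PSL(2,q)` is `PSL(2,q)`.
Basic definitions and arithmetic for the case `q` odd.
-/

set_option autoImplicit false

namespace Cfsg.Agent.Lib.Helper73.SPO

/-- `G` has the order and the spectrum of `PSL(2,q)`, `q = p^f ≥ 5` odd. -/
structure Hyp (G : Type*) [Group G] (p q : ℕ) : Prop where
  hp : p.Prime
  hp2 : p ≠ 2
  hq : ∃ f : ℕ, f ≠ 0 ∧ q = p ^ f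
  hq5 : 5 ≤ q
  card : 2 * Nat.card G = q * (q - 1) * (q + 1)
  ord : ∀ x : G, orderOf x ∣ p ∨ orderOf x ∣ (q - 1) / 2 ∨ orderOf x ∣ (q + 1) / 2
  ex1 : ∃ x : G, orderOf x = (q - 1) / 2
  ex2 : ∃ x : G, orderOf x = (q + 1) / 2

variable {G : Type*} [Group G] {p q : ℕ}

theorem Hyp.p_dvd_q (H : Hyp G p q) : p ∣ q := by
  obtain ⟨f, hf, rfl⟩ := H.hq
  exact dvd_pow_self p hf

theorem Hyp.odd_p (H : Hyp G p q) : Odd p := H.hp.odd_of_ne_two H.hp2

theorem Hyp.odd_q (H : Hyp G p q) : Odd q := by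
  obtain ⟨f, hf, rfl⟩ := H.hq
  exact H.odd_p.pow

theorem Hyp.two_mul_a (H : Hyp G p q) : 2 * ((q - 1) / 2) = q - 1 := by
  obtain ⟨k, hk⟩ := H.odd_q
  omega

theorem Hyp.two_mul_b (H : Hyp G p q) : 2 * ((q + 1) / 2) = q + 1 := by
  obtain ⟨k, hk⟩ := H.odd_q
  omega

theorem Hyp.not_dvd_sub (H : Hyp G p q) : ¬ p ∣ q - 1 := by
  intro h
  have h5 := H.hq5
  have h1 : p ∣ q - (q - 1) := Nat.dvd_sub H.p_dvd_q h
  have h2 : q - (q - 1) = 1 := by omega
  rw [h2] at h1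
  exact H.hp.one_lt.ne' (Nat.dvd_one.mp h1)

theorem Hyp.not_dvd_add (H : Hyp G p q) : ¬ p ∣ q + 1 := by
  intro h
  have h1 : p ∣ q + 1 - q := Nat.dvd_sub h H.p_dvd_q
  have h2 : q + 1 - q = 1 := by omega
  rw [h2] at h1
  exact H.hp.one_lt.ne' (Nat.dvd_one.mp h1)

theorem Hyp.not_dvd_a (H : Hyp G p q) : ¬ p ∣ (q - 1) / 2 := fun h =>
  H.not_dvd_sub (by rw [← H.two_mul_a]; exact Dvd.dvd.mul_left h 2)

theorem Hyp.not_dvd_b (H : Hyp G p q) : ¬ p ∣ (q + 1) / 2 := fun h =>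
  H.not_dvd_add (by rw [← H.two_mul_b]; exact Dvd.dvd.mul_left h 2)

theorem Hyp.coprime_ab (H : Hyp G p q) : Nat.Coprime ((q - 1) / 2) ((q + 1) / 2) := by
  have h5 := H.hq5
  have h : (q + 1) / 2 = (q - 1) / 2 + 1 := by
    obtain ⟨k, hk⟩ := H.odd_q
    omega
  rw [h]
  simp

theorem Hyp.card' (H : Hyp G p q) : Nat.card G = q * (2 * ((q - 1) / 2) * ((q + 1) / 2)) := by
  have h1 := H.card
  have h2 := H.two_mul_a
  have h3 := H.two_mul_b
  have : 2 * Nat.card G = 2 * (q * (2 * ((q - 1) / 2) * ((q + 1) / 2))) := by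
    rw [h1, h2]
    calc q * (q - 1) * (q + 1) = q * (q - 1) * (2 * ((q + 1) / 2)) := by rw [h3]
      _ = 2 * (q * ((q - 1) * ((q + 1) / 2))) := by ring
  omega

/-- If `p` divides the order of `g` then `g` has order `p`. -/
theorem Hyp.pow_p_of_dvd (H : Hyp G p q) {g : G} (hg : p ∣ orderOf g) : g ^ p = 1 := by
  rcases H.ord g with h | h | h
  · exact orderOf_dvd_iff_pow_eq_one.mp h
  · exact absurd (hg.trans h) H.not_dvd_a
  · exact absurd (hg.trans h) H.not_dvd_b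

/-- `p`-elements have order dividing `p`. -/
theorem Hyp.pow_p_of_pow (H : Hyp G p q) {g : G} {k : ℕ} (hg : g ^ p ^ k = 1) : g ^ p = 1 := by
  by_cases h1 : g = 1
  · rw [h1, one_pow]
  · apply H.pow_p_of_dvd
    obtain ⟨j, hj, hjo⟩ := (Nat.dvd_prime_pow H.hp).mp (orderOf_dvd_of_pow_eq_one hg)
    rw [hjo]
    rcases j with _ | j
    · rw [pow_zero, orderOf_eq_one_iff] at hjo
      exact absurd hjo h1
    · exact dvd_pow_self p (Nat.succ_ne_zero j)

theorem Hyp.pow_p_of_mem (H : Hyp G p q) {P : Subgroup G} (hP : IsPGroup p P) {g : G} (hg : g ∈ P) :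
    g ^ p = 1 := by
  obtain ⟨k, hk⟩ := hP ⟨g, hg⟩
  apply H.pow_p_of_pow (k := k)
  have := congrArg Subtype.val hk
  simpa using this

/-- **Cpp**: everything commuting with an element of order `p` has order dividing `p`. -/
theorem Hyp.cpp [Finite G] (H : Hyp G p q) {x y : G} (hx : orderOf x = p) (hxy : Commute x y) :
    y ^ p = 1 := by
  by_cases h : p ∣ orderOf y
  · exact H.pow_p_of_dvd h
  · have hc : Nat.Coprime (orderOf x) (orderOf y) := by
      rw [hx]; exact (Nat.Prime.coprime_iff_not_dvd H.hp).mpr h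
    have h1 := hxy.orderOf_mul_eq_mul_orderOf_of_coprime hc
    have h2 : (x * y) ^ p = 1 := H.pow_p_of_dvd (by rw [h1, hx]; exact dvd_mul_right _ _)
    rw [hxy.mul_pow, ← hx, pow_orderOf_eq_one, one_mul, hx] at h2
    exact h2

/-- A non-identity element of order prime to `p` commutes with no non-identity `p`-element. -/
theorem Hyp.cpp' [Finite G] (H : Hyp G p q) {x y : G} (hx : x ^ p = 1) (hx1 : x ≠ 1)
    (hxy : Commute x y) (hy : (orderOf y).Coprime p) : y = 1 := by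
  haveI : Fact p.Prime := ⟨H.hp⟩
  have hxo : orderOf x = p := orderOf_eq_prime hx hx1
  have h1 := H.cpp hxo hxy
  have h2 : orderOf y ∣ p := orderOf_dvd_of_pow_eq_one h1
  have h3 : orderOf y ∣ 1 := by
    have := Nat.dvd_gcd (dvd_refl _) h2
    rwa [Nat.Coprime.gcd_eq_one hy] at this
  exact orderOf_eq_one_iff.mp (Nat.dvd_one.mp h3)

end Cfsg.Agent.Lib.Helper73.SPO
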