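import Cfsg.Agent.Lib.Helper73.SPO.Defs

/-! Ladder SPO (S3421), rung EVEN. -/

set_option autoImplicit false

namespace Cfsg.Agent.Lib.Helper73.SPO

variable {G : Type*} [Group G] [Finite G] {p q : ℕ}

omit [Finite G] in
theorem ev_le_normalizer {K S : Subgroup G} (h : ∀ g ∈ S, ∀ k ∈ K, g * k * g⁻¹ ∈ K) :
    S ≤ Subgroup.normalizer (K : Set G) := by
  intro g hg
  rw [Subgroup.mem_normalizer_iff]
  intro k
  refine ⟨h g hg k, fun hk => ?_⟩
  have h1 := h g⁻¹ (S.inv_mem hg) _ hk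
  have h2 : g⁻¹ * (g * k * g⁻¹) * g⁻¹⁻¹ = k := by group
  rwa [h2] at h1

/-- an involution normalising a `p`-subgroup inverts it -/
theorem ev_inverts (H : Hyp G p q) (R : Subgroup G) (hR : IsPGroup p R) (t : G)
    (ht : orderOf t = 2) (htR : t ∈ Subgroup.normalizer (R : Set G)) :
    ∀ u ∈ R, t * u * t⁻¹ = u⁻¹ := by
  have ht2 : t * t = 1 := by
    rw [← pow_two, ← ht]; exact pow_orderOf_eq_one t
  have ht1 : t ≠ 1 := by
    rintro rfl; simp at ht
  have htinv : t⁻¹ = t := inv_eq_of_mul_eq_one_left ht2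
  have hcop : (orderOf t).Coprime p := by
    rw [ht]; exact (Nat.coprime_primes Nat.prime_two H.hp).2 (Ne.symm H.hp2)
  have hfix : ∀ u ∈ R, Commute u t → u = 1 := by
    intro u hu hc
    by_contra h1
    exact ht1 (H.cpp' (H.pow_p_of_mem hR hu) h1 hc hcop)
  let φ : R → R := fun u => ⟨(u : G)⁻¹ * (t * u * t⁻¹),
    R.mul_mem (R.inv_mem u.2) ((Subgroup.mem_normalizer_iff.1 htR u).1 u.2)⟩
  have hinj : Function.Injective φ := by
    intro u v huv
    have h1 : (u : G)⁻¹ * (t * u * t⁻¹) = (v : G)⁻¹ * (t * v * t⁻¹) := congrArg Subtype.val huv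
    have h2 : Commute ((v : G) * (u : G)⁻¹) t := by
      show (v : G) * (u : G)⁻¹ * t = t * ((v : G) * (u : G)⁻¹)
      have h3 : (v : G) * (u : G)⁻¹ * t = t * v * (u : G)⁻¹ := by
        calc (v : G) * (u : G)⁻¹ * t = v * ((u : G)⁻¹ * (t * u * t⁻¹)) * t * (u : G)⁻¹ := by group
          _ = v * ((v : G)⁻¹ * (t * v * t⁻¹)) * t * (u : G)⁻¹ := by rw [h1]
          _ = t * v * (u : G)⁻¹ := by group
      rw [h3, mul_assoc]
    have h4 := hfix _ (R.mul_mem v.2 (R.inv_mem u.2)) h2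
    apply Subtype.ext
    exact (mul_inv_eq_one.1 h4).symm
  have hsurj := Finite.surjective_of_injective hinj
  intro w hw
  obtain ⟨u, hu⟩ := hsurj ⟨w, hw⟩
  have h1 : (u : G)⁻¹ * (t * u * t⁻¹) = w := congrArg Subtype.val hu
  rw [← h1, htinv]
  have e1 : t * ((u : G)⁻¹ * (t * u * t)) * t = t * (u : G)⁻¹ * t * u * (t * t) := by group
  have e2 : ((u : G)⁻¹ * (t * u * t))⁻¹ = t⁻¹ * (u : G)⁻¹ * t⁻¹ * u := by group
  rw [e1, e2, ht2, mul_one, htinv]

/- EVEN -/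
theorem even_case (H : Hyp G p q) (M Q : Subgroup G) (hQM : Q ≤ M)
    (hMN : M ≤ Subgroup.normalizer (Q : Set G)) (hQ : IsPGroup p Q) (hQ1 : Q ≠ ⊥)
    (hmax : ∀ Q' : Subgroup G, Q ≤ Q' → Q' ≤ M → M ≤ Subgroup.normalizer (Q' : Set G) →
      IsPGroup p Q' → Q' = Q)
    (t : G) (htM : t ∈ M) (ht : orderOf t = 2) : ∀ x ∈ M, x ^ p = 1 → x ∈ Q := by
  intro x hxM hxp
  have : Fact p.Prime := ⟨H.hp⟩
  have ht2 : t * t = 1 := by
    rw [← pow_two, ← ht]; exact pow_orderOf_eq_one t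
  have htinv : t⁻¹ = t := inv_eq_of_mul_eq_one_left ht2
  have hconjQ : ∀ g ∈ M, ∀ u ∈ Q, g * u * g⁻¹ ∈ Q := fun g hg u hu =>
    (Subgroup.mem_normalizer_iff.1 (hMN hg) u).1 hu
  have hinv : ∀ s ∈ M, orderOf s = 2 → ∀ u ∈ Q, s * u * s⁻¹ = u⁻¹ := fun s hs ho =>
    ev_inverts H Q hQ s ho (hMN hs)
  obtain ⟨C, hC⟩ : ∃ C : Subgroup G, C = Subgroup.centralizer (Q : Set G) ⊓ M := ⟨_, rfl⟩
  have hCmem : ∀ c, c ∈ C ↔ (∀ u ∈ Q, u * c = c * u) ∧ c ∈ M := by
    intro c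
    rw [hC, Subgroup.mem_inf, Subgroup.mem_centralizer_iff]
    rfl
  obtain ⟨u0, hu0Q, hu01⟩ : ∃ u : G, u ∈ Q ∧ u ≠ 1 := by
    by_contra hcon
    push Not at hcon
    exact hQ1 ((Subgroup.eq_bot_iff_forall Q).2 hcon)
  have hu0o : orderOf u0 = p := orderOf_eq_prime (H.pow_p_of_mem hQ hu0Q) hu01
  have hCp : IsPGroup p C := by
    intro c
    refine ⟨1, ?_⟩
    have h1 := H.cpp hu0o (((hCmem c).1 c.2).1 u0 hu0Q : u0 * c = c * u0)
    apply Subtype.ext
    simpa using h1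
  have hCM : C ≤ M := fun c hc => ((hCmem c).1 hc).2
  have hCQ : C ≤ Q := by
    have h1 : C ⊔ Q = Q := by
      apply hmax (C ⊔ Q) le_sup_right (sup_le hCM hQM)
      · apply ev_le_normalizer
        intro g hg
        have h2 : C ⊔ Q ≤ (C ⊔ Q).comap (MulAut.conj g).toMonoidHom := by
          apply sup_le
          · intro c hc
            rw [Subgroup.mem_comap]
            apply Subgroup.mem_sup_left
            show g * c * g⁻¹ ∈ C
            rw [hCmem]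
            refine ⟨fun u hu => ?_, M.mul_mem (M.mul_mem hg (hCM hc)) (M.inv_mem hg)⟩
            have h3 := hconjQ g⁻¹ (M.inv_mem hg) u hu
            have h4 := ((hCmem c).1 hc).1 _ h3
            rw [inv_inv] at h4
            calc u * (g * c * g⁻¹) = g * ((g⁻¹ * u * g) * c) * g⁻¹ := by group
              _ = g * (c * (g⁻¹ * u * g)) * g⁻¹ := by rw [h4]
              _ = g * c * g⁻¹ * u := by group
          · intro u hu
            rw [Subgroup.mem_comap]
            exact Subgroup.mem_sup_right (hconjQ g hg u hu)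
        intro k hk
        exact h2 hk
      · exact hCp.to_sup_of_normal_right' hQ (hCM.trans hMN)
    rw [← h1]; exact le_sup_left
  -- the commutator of `t` and `x`
  have hs2 : orderOf (x * t * x⁻¹) = 2 := by
    have : x * t * x⁻¹ = MulAut.conj x t := by rw [MulAut.conj_apply]
    rw [this, MulEquiv.orderOf_eq, ht]
  have hsM : x * t * x⁻¹ ∈ M := M.mul_mem (M.mul_mem hxM htM) (M.inv_mem hxM)
  have hcC : t * x * t⁻¹ * x⁻¹ ∈ C := by
    rw [hCmem]
    refine ⟨fun u hu => ?_, M.mul_mem (M.mul_mem (M.mul_mem htM hxM) (M.inv_mem htM)) (M.inv_mem hxM)⟩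
    have h1 := hinv _ hsM hs2 u hu
    have h2 := hinv t htM ht u⁻¹ (Q.inv_mem hu)
    rw [inv_inv] at h2
    -- `t s u s⁻¹ t⁻¹ = u`
    have h3 : (t * x * t⁻¹ * x⁻¹) * u * (t * x * t⁻¹ * x⁻¹)⁻¹ = u := by
      have e : (t * x * t⁻¹ * x⁻¹) * u * (t * x * t⁻¹ * x⁻¹)⁻¹ =
          t * ((x * t⁻¹ * x⁻¹) * u * (x * t⁻¹ * x⁻¹)⁻¹) * t⁻¹ := by group
      rw [e, htinv, h1]
      rw [htinv] at h2
      exact h2
    exact (mul_inv_eq_iff_eq_mul.1 h3).symm
  have hcQ := hCQ hcC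
  obtain ⟨R, hRdef⟩ : ∃ R : Subgroup G, R = Subgroup.zpowers x ⊔ Q := ⟨_, rfl⟩
  have hxR : x ∈ R := by
    rw [hRdef]; exact Subgroup.mem_sup_left (Subgroup.mem_zpowers x)
  have hQR : Q ≤ R := by
    rw [hRdef]; exact le_sup_right
  have hRp : IsPGroup p R := by
    rw [hRdef]
    apply IsPGroup.to_sup_of_normal_right' _ hQ
    · rw [Subgroup.zpowers_le]; exact hMN hxM
    · intro z
      refine ⟨1, ?_⟩
      obtain ⟨k, hk⟩ := Subgroup.mem_zpowers_iff.1 z.2
      apply Subtype.ext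
      simp only [pow_one, Subgroup.coe_pow, Subgroup.coe_one]
      rw [← hk, ← zpow_natCast, ← zpow_mul, mul_comm, zpow_mul, zpow_natCast, hxp, one_zpow]
  have htR1 : ∀ k ∈ R, t * k * t⁻¹ ∈ R := by
    have h2 : R ≤ R.comap (MulAut.conj t).toMonoidHom := by
      conv_lhs => rw [hRdef]
      apply sup_le
      · rw [Subgroup.zpowers_le, Subgroup.mem_comap]
        show t * x * t⁻¹ ∈ R
        have e : t * x * t⁻¹ = (t * x * t⁻¹ * x⁻¹) * x := by group
        rw [e]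
        exact R.mul_mem (hQR hcQ) hxR
      · intro u hu
        rw [Subgroup.mem_comap]
        exact hQR (hconjQ t htM u hu)
    intro k hk
    exact h2 hk
  have htR : t ∈ Subgroup.normalizer (R : Set G) := by
    rw [Subgroup.mem_normalizer_iff]
    intro k
    refine ⟨htR1 k, fun hk => ?_⟩
    have h1 := htR1 _ hk
    have h2 : t * (t * k * t⁻¹) * t⁻¹ = (t * t) * k * (t * t)⁻¹ := by group
    rw [h2, ht2] at h1
    simpa using h1
  have h5 := ev_inverts H R hRp t ht htR x hxR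
  rw [h5] at hcQ
  have h6 : x * x ∈ Q := by
    have := Q.inv_mem hcQ
    simpa using this
  obtain ⟨k, hk⟩ := H.odd_p
  have h7 : x = (x * x) ^ (k + 1) := by
    rw [← pow_two, ← pow_mul]
    have : 2 * (k + 1) = p + 1 := by omega
    rw [this, pow_succ, hxp, one_mul]
  rw [h7]
  exact Q.pow_mem h6 _

end Cfsg.Agent.Lib.Helper73.SPO
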