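import Mathlib
import Cfsg.Agent.S1230

/-!
# Ladder SPO (S3421), rung EVQ: the case of characteristic two.
-/

set_option autoImplicit false

namespace Cfsg.Agent.Lib.Helper73.SPO

theorem even_main {G : Type*} [Group G] [Finite G] (n : ℕ) (hn : 2 ≤ n)
    (hcard : Nat.card G = 2 ^ n * (2 ^ n - 1) * (2 ^ n + 1))
    (hord : ∀ x : G, Even (orderOf x) → orderOf x = 2) :
    ∃ (K : Type) (_ : Field K) (_ : Fintype K), Fintype.card K = 2 ^ n ∧
      Nonempty (G ≃* Matrix.ProjectiveSpecialLinearGroup (Fin 2) K) := by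
  classical
  have h4 : 4 ≤ 2 ^ n := by
    calc 4 = 2 ^ 2 := by norm_num
      _ ≤ 2 ^ n := Nat.pow_le_pow_right (by norm_num) hn
  have hev : Even (2 ^ n) := Nat.even_pow.mpr ⟨even_two, by omega⟩
  have hcT : ∀ T : Sylow 2 G, Nat.card (T : Subgroup G) = 2 ^ n := by
    intro T
    have hnd : ¬ 2 ∣ (2 ^ n - 1) * (2 ^ n + 1) := by
      obtain ⟨k, hk⟩ := hev
      intro h
      rcases (Nat.Prime.dvd_mul Nat.prime_two).mp h with h | h <;> omega
    have h0 : (2 ^ n - 1) * (2 ^ n + 1) ≠ 0 := by
      intro h; rw [h] at hnd; exact hnd (dvd_zero 2)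
    have h1 : (Nat.card G).factorization 2 = n := by
      rw [hcard, mul_assoc, Nat.factorization_mul (by positivity) h0, Finsupp.add_apply,
        Nat.factorization_eq_zero_of_not_dvd hnd, add_zero, Nat.prime_two.factorization_pow]
      simp
    rw [Sylow.card_eq_multiplicity, h1]
  -- centralizers of involutions have exponent two
  have hC2 : ∀ t : G, orderOf t = 2 → ∀ c ∈ Subgroup.centralizer ({t} : Set G), c ^ 2 = 1 := by
    intro t ht c hc
    rcases Nat.even_or_odd (orderOf c) with he | ho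
    · rw [← hord c he]; exact pow_orderOf_eq_one c
    · have hcomm : Commute t c := by
        have := Subgroup.mem_centralizer_singleton_iff.mp hc
        exact this.symm
      have hcop : Nat.Coprime (orderOf t) (orderOf c) := by
        rw [ht]; exact (Nat.coprime_two_left).mpr ho
      have h1 := hcomm.orderOf_mul_eq_mul_orderOf_of_coprime hcop
      have h2 := hord (t * c) (by rw [h1, ht]; exact even_two_mul _)
      rw [h1, ht] at h2
      have h3 : orderOf c = 1 := by omega
      rw [orderOf_eq_one_iff.mp h3, one_pow]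
  have hC : ∀ t : G, orderOf t = 2 → IsMulCommutative (Subgroup.centralizer ({t} : Set G)) ∧
      ∀ c ∈ Subgroup.centralizer ({t} : Set G), c ^ 2 = 1 := by
    intro t ht
    refine ⟨⟨⟨?_⟩⟩, hC2 t ht⟩
    intro a b
    have ha := hC2 t ht a a.2
    have hb := hC2 t ht b b.2
    have hab := hC2 t ht (a * b) (a * b).2
    apply Subtype.ext
    show (a : G) * b = b * a
    have hab' : ((a : G) * b) ^ 2 = 1 := hab
    have h1 : (a : G) * a = 1 := by rw [← sq]; exact ha
    have h2 : (b : G) * b = 1 := by rw [← sq]; exact hb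
    have h3 : (a : G) * b * (a * b) = 1 := by rw [← sq]; exact hab'
    have ia : (a : G)⁻¹ = a := (eq_inv_of_mul_eq_one_left h1).symm
    have ib : (b : G)⁻¹ = b := (eq_inv_of_mul_eq_one_left h2).symm
    have iab : ((a : G) * b)⁻¹ = a * b := (eq_inv_of_mul_eq_one_left h3).symm
    calc (a : G) * b = ((a : G) * b)⁻¹ := iab.symm
      _ = (b : G)⁻¹ * (a : G)⁻¹ := mul_inv_rev _ _
      _ = b * a := by rw [ia, ib]
  let T : Sylow 2 G := default
  have hTc := hcT T
  -- elements of `T` have order dividing two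
  have hT2 : ∀ x ∈ (T : Subgroup G), x ≠ 1 → orderOf x = 2 := by
    intro x hx hx1
    obtain ⟨k, hk⟩ := T.2 ⟨x, hx⟩
    have hk' : x ^ 2 ^ k = 1 := by
      have := congrArg Subtype.val hk
      simpa using this
    obtain ⟨j, hj, hjo⟩ := (Nat.dvd_prime_pow Nat.prime_two).mp (orderOf_dvd_of_pow_eq_one hk')
    apply hord
    rw [hjo]
    rcases j with _ | j
    · rw [pow_zero, orderOf_eq_one_iff] at hjo
      exact absurd hjo hx1
    · exact Nat.even_pow.mpr ⟨even_two, Nat.succ_ne_zero j⟩
  have hnc : ¬ IsCyclic (T : Subgroup G) := by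
    intro hcyc
    obtain ⟨g, hg⟩ := IsCyclic.exists_ofOrder_eq_natCard (α := (T : Subgroup G))
    rw [hTc, Subgroup.orderOf_mk] at hg
    have h1 : (g : G) ≠ 1 := by
      intro h
      rw [h, orderOf_one] at hg
      omega
    have := hT2 g g.2 h1
    omega
  have hnn : ¬ (T : Subgroup G).Normal := by
    intro hnorm
    obtain ⟨t, htT, ht1⟩ : ∃ t ∈ (T : Subgroup G), t ≠ 1 := by
      by_contra hcon
      push Not at hcon
      have hb : (T : Subgroup G) = ⊥ := (Subgroup.eq_bot_iff_forall _).mpr hcon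
      rw [hb, Subgroup.card_bot] at hTc
      omega
    have ht := hT2 t htT ht1
    set C : Subgroup G := Subgroup.centralizer ({t} : Set G) with hCdef
    have hCp : IsPGroup 2 C := by
      intro c
      refine ⟨1, ?_⟩
      apply Subtype.ext
      have := hC2 t ht c c.2
      simpa using this
    obtain ⟨S, hS⟩ := hCp.exists_le_sylow
    have hCle : Nat.card C ≤ 2 ^ n := by
      rw [← hcT S]
      exact Subgroup.card_le_of_le hS
    have hle : Nat.card G ≤ Nat.card (T : Subgroup G) * Nat.card C := by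
      let f : G → G := fun g => g * t * g⁻¹
      let rep : G → G := fun s => if h : ∃ g', f g' = s then h.choose else 1
      have hrep : ∀ g, f (rep (f g)) = f g := by
        intro g
        have h : ∃ g', f g' = f g := ⟨g, rfl⟩
        simp only [rep, dif_pos h]
        exact h.choose_spec
      have hmemC : ∀ g, (rep (f g))⁻¹ * g ∈ C := by
        intro g
        rw [hCdef, Subgroup.mem_centralizer_singleton_iff]
        have h1 : rep (f g) * t * (rep (f g))⁻¹ = g * t * g⁻¹ := hrep g
        have h2 : t = (rep (f g))⁻¹ * (g * t * g⁻¹) * rep (f g) := by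
          rw [← h1]; group
        calc (rep (f g))⁻¹ * g * t = ((rep (f g))⁻¹ * (g * t * g⁻¹) * rep (f g)) *
              ((rep (f g))⁻¹ * g) := by group
          _ = t * ((rep (f g))⁻¹ * g) := by rw [← h2]
      let Φ : G → ↥(T : Subgroup G) × ↥C := fun g =>
        ((⟨f g, hnorm.conj_mem t htT g⟩ : (T : Subgroup G)), (⟨(rep (f g))⁻¹ * g, hmemC g⟩ : C))
      have hinj : Function.Injective Φ := by
        intro g g' h
        have h1 : f g = f g' := congrArg (fun z : ↥(T : Subgroup G) × ↥C => (z.1 : G)) h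
        have h2 : (rep (f g))⁻¹ * g = (rep (f g'))⁻¹ * g' :=
          congrArg (fun z : ↥(T : Subgroup G) × ↥C => (z.2 : G)) h
        rw [h1] at h2
        exact mul_left_cancel h2
      calc Nat.card G ≤ Nat.card (↥(T : Subgroup G) × ↥C) := Nat.card_le_card_of_injective Φ hinj
        _ = _ := Nat.card_prod _ _
    rw [hTc, hcard] at hle
    have h5 : 2 ^ n * Nat.card C ≤ 2 ^ n * 2 ^ n := Nat.mul_le_mul_left _ hCle
    have h6 : 2 ^ n * 2 ^ n < 2 ^ n * (2 ^ n - 1) * (2 ^ n + 1) := by
      rw [mul_assoc]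
      apply Nat.mul_lt_mul_of_pos_left _ (by positivity)
      obtain ⟨k, hk⟩ : ∃ k, 2 ^ n = k + 4 := ⟨2 ^ n - 4, by omega⟩
      rw [hk]
      have : k + 4 - 1 = k + 3 := by omega
      rw [this]
      nlinarith
    omega
  obtain ⟨K, iK, iF, hK, hiso⟩ := Cfsg.Agent.S1230.result T hnc hnn hC
  exact ⟨K, iK, iF, by rw [hK, hTc], hiso⟩

end Cfsg.Agent.Lib.Helper73.SPO
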