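import Cfsg.Agent.Lib.Helper73.SPO.Defs

/-!
# Ladder SPO, rung EXP (helper72): no Frobenius-like configuration `Q : Y : ⟨x⟩`
-/

set_option autoImplicit false

namespace Cfsg.Agent.Lib.Helper73.SPO

theorem EXP_conj_pow {K : Type*} [Group K] (Y : Subgroup K) (x : K)
    (hxY : ∀ y ∈ Y, x * y * x⁻¹ ∈ Y) (j : ℕ) : ∀ y ∈ Y, x ^ j * y * (x ^ j)⁻¹ ∈ Y := by
  induction j with
  | zero => intro y hy; simpa using hy
  | succ j ih =>
    intro y hy
    have h1 := hxY _ (ih y hy)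
    have h2 : x ^ (j + 1) * y * (x ^ (j + 1))⁻¹ = x * (x ^ j * y * (x ^ j)⁻¹) * x⁻¹ := by
      rw [pow_succ']
      generalize x ^ j = v
      group
    rw [h2]; exact h1

theorem EXP_beta {K : Type*} [Group K] (Y : Subgroup K) (x : K)
    (hxY : ∀ y ∈ Y, x * y * x⁻¹ ∈ Y) (y : K) (hy : y ∈ Y) (j : ℕ) :
    (y * x) ^ j * (x ^ j)⁻¹ ∈ Y := by
  induction j with
  | zero => simp
  | succ j ih =>
    have h1 := EXP_conj_pow Y x hxY j y hy
    have h2 : (y * x) ^ (j + 1) * (x ^ (j + 1))⁻¹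
        = ((y * x) ^ j * (x ^ j)⁻¹) * (x ^ j * y * (x ^ j)⁻¹) := by
      rw [pow_succ, pow_succ]
      generalize (y * x) ^ j = u
      generalize x ^ j = v
      group
    rw [h2]; exact Y.mul_mem ih h1

theorem EXP_pow_inj {K : Type*} [Group K] {p j : ℕ} (hp : 1 < p) (hj : Nat.Coprime j p) {g g' : K}
    (hg : g ^ p = 1) (hg' : g' ^ p = 1) (h : g ^ j = g' ^ j) : g = g' := by
  obtain ⟨m, -, hm⟩ := Nat.exists_mul_mod_eq_one_of_coprime hj hp
  have h1 : ∀ z : K, z ^ p = 1 → z = (z ^ j) ^ m := by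
    intro z hz
    rw [← pow_mul, pow_eq_pow_mod (j * m) hz, hm, pow_one]
  rw [h1 g hg, h1 g' hg', h]

theorem EXP_abs {K A : Type*} [Group K] [CommGroup A] (θ : K →* MulAut A) (Y : Subgroup K)
    [Finite Y] (x : K) (hxY : ∀ y ∈ Y, x * y * x⁻¹ ∈ Y) (p : ℕ) (hp : p.Prime)
    (h1 : ∀ d : A, (∀ y ∈ Y, θ y d = d) → d = 1)
    (h2 : ∀ y ∈ Y, (y * x) ^ p = 1)
    (h3 : ∀ y ∈ Y, ∀ d : A, ∏ j ∈ Finset.range p, θ ((y * x) ^ (j + 1)) d = 1) (d : A) :
    d ^ Nat.card Y = 1 := by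
  classical
  have := Fintype.ofFinite Y
  have hT : ∀ d' : A, ∏ y : Y, θ (y : K) d' = 1 := by
    intro d'
    apply h1
    intro y₀ hy₀
    rw [map_prod]
    refine Fintype.prod_equiv (Equiv.mulLeft (⟨y₀, hy₀⟩ : Y)) _ _ ?_
    intro y
    simp [map_mul]
  have hmid : ∀ j, 0 < j → j < p → ∏ y : Y, θ (((y : K) * x) ^ j) d = 1 := by
    intro j hj0 hjp
    have hcop : Nat.Coprime j p := (Nat.coprime_of_lt_prime hj0.ne' hjp hp).symm
    set β : Y → Y := fun y => ⟨((y : K) * x) ^ j * (x ^ j)⁻¹, EXP_beta Y x hxY y y.2 j⟩ with hβ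
    have hinj : Function.Injective β := by
      intro y y' h
      have h4 : ((y : K) * x) ^ j = ((y' : K) * x) ^ j := by
        have := congrArg Subtype.val h
        exact mul_right_cancel this
      have h5 := EXP_pow_inj hp.one_lt hcop (h2 y y.2) (h2 y' y'.2) h4
      exact Subtype.ext (mul_right_cancel h5)
    have hbij : Function.Bijective β := Finite.injective_iff_bijective.1 hinj
    rw [← hT (θ (x ^ j) d), ← hbij.prod_comp (fun y' : Y => θ (y' : K) (θ (x ^ j) d))]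
    apply Finset.prod_congr rfl
    intro y _
    show θ (((y : K) * x) ^ j) d = θ (((y : K) * x) ^ j * (x ^ j)⁻¹) (θ (x ^ j) d)
    rw [← MulAut.mul_apply, ← map_mul, inv_mul_cancel_right]
  have hmain : ∏ y : Y, ∏ j ∈ Finset.range p, θ (((y : K) * x) ^ (j + 1)) d = 1 :=
    Finset.prod_eq_one (fun y _ => h3 y y.2 d)
  rw [Finset.prod_comm] at hmain
  obtain ⟨p', rfl⟩ : ∃ p', p = p' + 1 := ⟨p - 1, by have := hp.pos; omega⟩
  rw [Finset.prod_range_succ, Finset.prod_eq_one (fun j hj => hmid (j + 1) (by omega)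
    (by have := Finset.mem_range.1 hj; omega)), one_mul] at hmain
  have hlast : ∀ y : Y, θ (((y : K) * x) ^ (p' + 1)) d = d := by
    intro y; rw [h2 y y.2, map_one]; rfl
  simp only [hlast] at hmain
  rw [Finset.prod_const, Finset.card_univ, ← Nat.card_eq_fintype_card] at hmain
  exact hmain

variable {G : Type*} [Group G] [Finite G] {p q : ℕ}

omit [Finite G] in
/-- the expansion of `(g d)^n` -/
theorem EXP_expand {A K : Type*} [CommGroup A] [Group K] (ι : A →* G) (κ : K →* G)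
    (θ : K → A → A) (hθ : ∀ k d, ι (θ k d) = κ k * ι d * (κ k)⁻¹) (g : K) (d : A) (n : ℕ) :
    (κ g * ι d) ^ n = ι (∏ j ∈ Finset.range n, θ (g ^ (j + 1)) d) * κ g ^ n := by
  induction n with
  | zero => simp
  | succ n ih =>
    rw [pow_succ, ih, Finset.prod_range_succ, map_mul, hθ, map_pow, pow_succ]
    generalize ι (∏ j ∈ Finset.range n, θ (g ^ (j + 1)) d) = P
    generalize κ g ^ n = u
    group

/-- EXP -/
theorem no_frob (H : Hyp G p q) (Q Y : Subgroup G) (hQ : IsPGroup p Q) (hQ1 : Q ≠ ⊥)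
    (hY1 : Y ≠ ⊥) (hYp : (Nat.card Y).Coprime p) (hYQ : Y ≤ Subgroup.normalizer (Q : Set G))
    (x : G) (hx : orderOf x = p) (hxQ : x ∈ Subgroup.normalizer (Q : Set G))
    (hxY : x ∈ Subgroup.normalizer (Y : Set G)) : False := by
  have hpf : Fact p.Prime := ⟨H.hp⟩
  set A : Subgroup G := Q ⊓ Subgroup.centralizer (Q : Set G) with hA
  have hAc : ∀ a ∈ A, ∀ b ∈ A, a * b = b * a := by
    intro a ha b hb
    exact (Subgroup.mem_centralizer_iff.1 hb.2) a ha.1
  have hconj : ∀ n ∈ Subgroup.normalizer (Q : Set G), ∀ a ∈ A, n * a * n⁻¹ ∈ A := by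
    intro n hn a ha
    refine Subgroup.mem_inf.2 ⟨(Subgroup.mem_normalizer_iff.1 hn a).1 ha.1, ?_⟩
    rw [Subgroup.mem_centralizer_iff]
    intro k hk
    have hk' : n⁻¹ * k * n ∈ Q := by
      rw [Subgroup.mem_normalizer_iff.1 hn]
      have : n * (n⁻¹ * k * n) * n⁻¹ = k := by group
      rw [this]; exact hk
    have h1 := (Subgroup.mem_centralizer_iff.1 ha.2) _ hk'
    calc k * (n * a * n⁻¹) = n * ((n⁻¹ * k * n) * a) * n⁻¹ := by group
      _ = n * (a * (n⁻¹ * k * n)) * n⁻¹ := by rw [h1]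
      _ = n * a * n⁻¹ * k := by group
  have hNA : Subgroup.normalizer (Q : Set G) ≤ Subgroup.normalizer (A : Set G) := by
    intro n hn
    rw [Subgroup.mem_normalizer_iff]
    intro h
    constructor
    · exact hconj n hn h
    · intro hh
      have h1 := hconj n⁻¹ (Subgroup.inv_mem _ hn) _ hh
      have h2 : n⁻¹ * (n * h * n⁻¹) * n⁻¹⁻¹ = h := by group
      rwa [h2] at h1
  -- a non-identity element of `A`
  obtain ⟨d₀, hd₀A, hd₀1⟩ : ∃ d₀ ∈ A, d₀ ≠ 1 := by
    have : Nontrivial Q := (Subgroup.nontrivial_iff_ne_bot Q).2 hQ1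
    have hnt := hQ.center_nontrivial
    obtain ⟨z, hz⟩ := exists_ne (1 : Subgroup.center Q)
    refine ⟨((z : Q) : G), Subgroup.mem_inf.2 ⟨(z : Q).2, ?_⟩, ?_⟩
    · rw [Subgroup.mem_centralizer_iff]
      intro k hk
      have := Subgroup.mem_center_iff.1 z.2 ⟨k, hk⟩
      exact congrArg Subtype.val this
    · intro h
      apply hz
      apply Subtype.ext
      apply Subtype.ext
      exact h
  have hApow : ∀ a ∈ A, a ^ p = 1 := fun a ha => H.pow_p_of_mem hQ ha.1
  -- p-elements of `Y` are trivial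
  have hYtriv : ∀ z ∈ Y, z ^ p = 1 → z = 1 := by
    intro z hz hzp
    have h1 : orderOf z ∣ Nat.card Y := Subgroup.orderOf_dvd_natCard Y hz
    have h2 : orderOf z ∣ p := orderOf_dvd_of_pow_eq_one hzp
    have h3 : orderOf z ∣ 1 := by
      have := Nat.dvd_gcd h1 h2
      rwa [Nat.Coprime.gcd_eq_one hYp] at this
    exact orderOf_eq_one_iff.1 (Nat.dvd_one.1 h3)
  have hYord : ∀ z ∈ Y, (orderOf z).Coprime p := fun z hz =>
    Nat.Coprime.coprime_dvd_left (Subgroup.orderOf_dvd_natCard Y hz) hYp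
  obtain ⟨y₁, hy₁, hy₁1⟩ : ∃ y₁ ∈ Y, y₁ ≠ 1 := by
    rcases Y.bot_or_exists_ne_one with h | h
    · exact absurd h hY1
    · exact h
  have hxY' : ∀ y ∈ Y, x * y * x⁻¹ ∈ Y := fun y hy => (Subgroup.mem_normalizer_iff.1 hxY y).1 hy
  -- `p ∣ orderOf (y x)`
  have hF3 : ∀ y ∈ Y, (y * x) ^ p = 1 := by
    intro y hy
    apply H.pow_p_of_dvd
    have h1 := EXP_beta Y x hxY' y hy (orderOf (y * x))
    rw [pow_orderOf_eq_one, one_mul] at h1
    have h2 : x ^ orderOf (y * x) ∈ Y := by simpa using Y.inv_mem h1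
    have h3 : x ^ orderOf (y * x) = 1 := by
      apply hYtriv _ h2
      rw [← pow_mul, mul_comm, pow_mul, ← hx, pow_orderOf_eq_one, one_pow]
    rw [← hx]
    exact orderOf_dvd_of_pow_eq_one h3
  -- `y x ∉ A`
  have hF4 : ∀ y ∈ Y, y * x ∉ A := by
    intro y hy hg
    set g := y * x with hgdef
    have hgY : ∀ y' ∈ Y, g * y' * g⁻¹ ∈ Y := by
      intro y' hy'
      have h1 := Y.mul_mem (Y.mul_mem hy (hxY' y' hy')) (Y.inv_mem hy)
      have h2 : y * (x * y' * x⁻¹) * y⁻¹ = g * y' * g⁻¹ := by rw [hgdef]; group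
      rwa [h2] at h1
    have hg1 : g ≠ 1 := by
      intro h
      have h1 : x = y⁻¹ := by
        rw [hgdef] at h
        exact eq_inv_of_mul_eq_one_right h
      have h2 : x = 1 := hYtriv x (h1 ▸ Y.inv_mem hy) (by rw [← hx, pow_orderOf_eq_one])
      rw [h2, orderOf_one] at hx
      exact H.hp.one_lt.ne hx
    have hcomm : Commute g y₁ := by
      have h1 : g * y₁ * g⁻¹ * y₁⁻¹ ∈ Y := Y.mul_mem (hgY y₁ hy₁) (Y.inv_mem hy₁)
      have h2 : g * y₁ * g⁻¹ * y₁⁻¹ ∈ A := by
        have h3 := A.mul_mem hg (hconj y₁ (hYQ hy₁) _ (A.inv_mem hg))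
        have h4 : g * (y₁ * g⁻¹ * y₁⁻¹) = g * y₁ * g⁻¹ * y₁⁻¹ := by group
        rwa [h4] at h3
      have h5 := hYtriv _ h1 (hApow _ h2)
      show g * y₁ = y₁ * g
      calc g * y₁ = (g * y₁ * g⁻¹ * y₁⁻¹) * (y₁ * g) := by group
        _ = y₁ * g := by rw [h5, one_mul]
    exact hy₁1 (H.cpp' (hApow g hg) hg1 hcomm (hYord y₁ hy₁))
  -- the abstract set-up
  let _ : CommGroup A :=
    { (inferInstance : Group A) with
      mul_comm := fun a b => Subtype.ext (hAc a a.2 b b.2) }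
  set θ := A.normalizerMonoidHom with hθ
  have hθa : ∀ k d, ((θ k d : A) : G) = (k : G) * (d : G) * (k : G)⁻¹ := fun k d => rfl
  set Y' : Subgroup ↥(Subgroup.normalizer (A : Set G)) :=
    Y.subgroupOf (Subgroup.normalizer (A : Set G)) with hY'
  have hYN : Y ≤ Subgroup.normalizer (A : Set G) := hYQ.trans hNA
  have hcard : Nat.card Y' = Nat.card Y :=
    Nat.card_congr (Subgroup.subgroupOfEquivOfLe hYN).toEquiv
  have key := EXP_abs θ Y' ⟨x, hNA hxQ⟩
    (by
      intro y hy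
      exact hxY' _ hy) p H.hp
    (by
      intro d hd
      by_contra hd1
      have h1 := hd ⟨y₁, hYN hy₁⟩ hy₁
      have h2 : y₁ * (d : G) * y₁⁻¹ = (d : G) := by
        have := congrArg Subtype.val h1
        rwa [hθa] at this
      have hcomm : Commute (d : G) y₁ := by
        show (d : G) * y₁ = y₁ * (d : G)
        calc (d : G) * y₁ = (y₁ * (d : G) * y₁⁻¹) * y₁ := by rw [h2]
          _ = y₁ * (d : G) := by group
      exact hy₁1 (H.cpp' (hApow _ d.2) (fun h => hd1 (Subtype.ext h)) hcomm (hYord y₁ hy₁)))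
    (by
      intro y hy
      apply Subtype.ext
      exact hF3 _ hy)
    (by
      intro y hy d
      set g : ↥(Subgroup.normalizer (A : Set G)) := y * ⟨x, hNA hxQ⟩ with hg
      have hgv : (g : G) = (y : G) * x := rfl
      have hgp : (g : G) ^ p = 1 := by rw [hgv]; exact hF3 _ hy
      have hy' : (y : G) ∈ Y := hy
      have hexp := EXP_expand A.subtype (Subgroup.normalizer (A : Set G)).subtype
        (fun k d => θ k d) hθa g d
      simp only [Subgroup.coe_subtype] at hexp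
      have hgd : ((g : G) * (d : G)) ^ p = 1 := by
        have hnot : ∀ k, orderOf ((g : G) * (d : G)) ∣ k → ¬ p ∣ k → False := by
          intro k hk hpk
          have hcop : Nat.Coprime k p := ((Nat.Prime.coprime_iff_not_dvd H.hp).2 hpk).symm
          have h1 := hexp k
          rw [orderOf_dvd_iff_pow_eq_one.1 hk] at h1
          have h2 : (g : G) ^ k ∈ A := by
            have h3 : (g : G) ^ k
                = ((∏ j ∈ Finset.range k, θ (g ^ (j + 1)) d : A) : G)⁻¹ :=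
              (inv_eq_of_mul_eq_one_right h1.symm).symm
            rw [h3]
            exact A.inv_mem (Subtype.prop _)
          obtain ⟨m, -, hm⟩ := Nat.exists_mul_mod_eq_one_of_coprime hcop H.hp.one_lt
          have h4 : (g : G) = ((g : G) ^ k) ^ m := by
            rw [← pow_mul, pow_eq_pow_mod (k * m) hgp, hm, pow_one]
          apply hF4 _ hy'
          rw [← hgv, h4]
          exact A.pow_mem h2 m
        rcases H.ord ((g : G) * (d : G)) with h | h | h
        · exact orderOf_dvd_iff_pow_eq_one.1 h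
        · exact (hnot _ h H.not_dvd_a).elim
        · exact (hnot _ h H.not_dvd_b).elim
      have h5 := hexp p
      rw [hgd, hgp, mul_one] at h5
      apply Subtype.ext
      exact h5.symm)
    ⟨d₀, hd₀A⟩
  rw [hcard] at key
  have h6 : d₀ ^ Nat.card Y = 1 := congrArg Subtype.val key
  have h7 : orderOf d₀ ∣ 1 := by
    have := Nat.dvd_gcd (orderOf_dvd_of_pow_eq_one h6) (orderOf_dvd_of_pow_eq_one (hApow d₀ hd₀A))
    rwa [Nat.Coprime.gcd_eq_one hYp] at this
  exact hd₀1 (orderOf_eq_one_iff.1 (Nat.dvd_one.1 h7))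

end Cfsg.Agent.Lib.Helper73.SPO
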