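import Cfsg.Agent.Lib.Helper73.SPO.Defs

/-! Ladder SPO (S3421), rung HC. -/

set_option autoImplicit false

namespace Cfsg.Agent.Lib.Helper73.SPO

variable {G : Type*} [Group G] [Finite G] {p q : ℕ}

theorem hc_core {f m m' : ℕ} (hp : p.Prime) (hq : q = p ^ f)
    (hcard : Nat.card G = q * (2 * m * m')) (hcop : Nat.Coprime m m') (hpm : ¬ p ∣ m)
    (hord : ∀ x : G, orderOf x ∣ p ∨ orderOf x ∣ m ∨ orderOf x ∣ m') (w : G) (hw : orderOf w = m)
    {y : G} {r : ℕ} (hr : r.Prime) (hrp : r ≠ p) (hr2 : r ≠ 2) (hrm : r ∣ m)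
    (hy : orderOf y = r) (U : Subgroup G) (hU : U ≤ Subgroup.centralizer {y})
    (hodd : Odd (Nat.card U)) : IsCyclic U := by
  have : Fact r.Prime := ⟨hr⟩
  have hG0 : Nat.card G ≠ 0 := Nat.card_pos.ne'
  have hm0 : m ≠ 0 := by
    rintro rfl; simp at hcard; exact hG0 hcard
  have hrm' : ¬ r ∣ m' := fun h => hr.one_lt.ne' (Nat.dvd_one.1 (hcop ▸ Nat.dvd_gcd hrm h))
  have hrq : ¬ r ∣ q := by
    rw [hq]
    intro h
    exact hrp ((Nat.prime_dvd_prime_iff_eq hr hp).1 (hr.dvd_of_dvd_pow h))
  -- primes dividing the centraliser divide `m`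
  have hA : ∀ s : ℕ, s.Prime → s ∣ Nat.card (Subgroup.centralizer ({y} : Set G)) → s ∣ m := by
    intro s hs hsd
    have : Fact s.Prime := ⟨hs⟩
    obtain ⟨z, hz⟩ := exists_prime_orderOf_dvd_card' s hsd
    by_cases hsr : s = r
    · rw [hsr]; exact hrm
    have hzc : Commute y (z : G) := by
      have := Subgroup.mem_centralizer_iff.1 z.2 y (Set.mem_singleton y)
      exact this
    have hzo : orderOf (z : G) = s := by rw [Subgroup.orderOf_coe, hz]
    have hc : Nat.Coprime (orderOf y) (orderOf (z : G)) := by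
      rw [hy, hzo]; exact (Nat.coprime_primes hr hs).2 (Ne.symm hsr)
    have h1 := hzc.orderOf_mul_eq_mul_orderOf_of_coprime hc
    rw [hy, hzo] at h1
    rcases hord (y * z) with h | h | h
    · rw [h1] at h
      exact absurd ((Nat.prime_dvd_prime_iff_eq hr hp).1 ((dvd_mul_right r s).trans h)) hrp
    · rw [h1] at h
      exact (dvd_mul_left s r).trans h
    · rw [h1] at h
      exact absurd ((dvd_mul_right r s).trans h) hrm'
  have hB : Nat.card (Subgroup.centralizer ({y} : Set G)) ∣ 2 * m := by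
    have h1 : Nat.card (Subgroup.centralizer ({y} : Set G)) ∣ (q * m') * (2 * m) := by
      have := Subgroup.card_subgroup_dvd_card (Subgroup.centralizer ({y} : Set G))
      rw [hcard] at this
      have e : q * (2 * m * m') = (q * m') * (2 * m) := by ring
      rwa [e] at this
    refine Nat.Coprime.dvd_of_dvd_mul_left ?_ h1
    apply Nat.coprime_of_dvd
    intro k hk hkd hkq
    have hkm := hA k hk hkd
    rcases (Nat.Prime.dvd_mul hk).1 hkq with h | h
    · rw [hq] at h
      have := (Nat.prime_dvd_prime_iff_eq hk hp).1 (hk.dvd_of_dvd_pow h)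
      exact hpm (this ▸ hkm)
    · exact hk.one_lt.ne' (Nat.dvd_one.1 (hcop ▸ Nat.dvd_gcd hkm h))
  -- a conjugate of `w` whose powers contain `y`
  obtain ⟨w₁, hw₁, hyw⟩ : ∃ w₁ : G, orderOf w₁ = m ∧ y ∈ Subgroup.zpowers w₁ := by
    have hfac : (Nat.card G).factorization r = m.factorization r := by
      have e : Nat.card G = m * (q * 2 * m') := by rw [hcard]; ring
      have hc0 : q * 2 * m' ≠ 0 := by
        intro h0; rw [e, h0, mul_zero] at hG0; exact hG0 rfl
      rw [e, Nat.factorization_mul hm0 hc0, Finsupp.add_apply]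
      have : (q * 2 * m').factorization r = 0 := by
        apply Nat.factorization_eq_zero_of_not_dvd
        intro h
        rcases (Nat.Prime.dvd_mul hr).1 h with h | h
        · rcases (Nat.Prime.dvd_mul hr).1 h with h | h
          · exact hrq h
          · exact hr2 ((Nat.prime_dvd_prime_iff_eq hr Nat.prime_two).1 h)
        · exact hrm' h
      rw [this, add_zero]
    have hn0 : m / r ^ m.factorization r ≠ 0 := (Nat.ordCompl_pos r hm0).ne'
    have ho : orderOf (w ^ (m / r ^ m.factorization r)) = r ^ m.factorization r := by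
      rw [orderOf_pow_of_dvd hn0 (by rw [hw]; exact Nat.ordCompl_dvd m r), hw]
      exact Nat.div_div_self (Nat.ordProj_dvd m r) hm0
    let R : Sylow r G := Sylow.ofCard (Subgroup.zpowers (w ^ (m / r ^ m.factorization r)))
      (by rw [Nat.card_zpowers, ho, hfac])
    have hyP : IsPGroup r (Subgroup.zpowers y) := by
      apply IsPGroup.of_card (n := 1)
      rw [Nat.card_zpowers, hy, pow_one]
    obtain ⟨R', hR'⟩ := hyP.exists_le_sylow
    obtain ⟨g, hg⟩ := MulAction.exists_smul_eq G R' R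
    have h1 : g * y * g⁻¹ ∈ (R : Subgroup G) := by
      rw [← hg, Sylow.coe_subgroup_smul]
      have h0 := Subgroup.smul_mem_pointwise_smul y (MulAut.conj g) (R' : Subgroup G)
        (hR' (Subgroup.mem_zpowers y))
      rwa [MulAut.smul_def, MulAut.conj_apply] at h0
    have h2 : g * y * g⁻¹ ∈ Subgroup.zpowers w := by
      have h3 : (R : Subgroup G) ≤ Subgroup.zpowers w := by
        show Subgroup.zpowers (w ^ (m / r ^ m.factorization r)) ≤ Subgroup.zpowers w
        rw [Subgroup.zpowers_le]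
        exact Subgroup.npow_mem_zpowers w _
      exact h3 h1
    obtain ⟨k, hk⟩ := Subgroup.mem_zpowers_iff.1 h2
    refine ⟨g⁻¹ * w * g, ?_, ?_⟩
    · have : g⁻¹ * w * g = MulAut.conj g⁻¹ w := by rw [MulAut.conj_apply, inv_inv]
      rw [this, MulEquiv.orderOf_eq, hw]
    · rw [Subgroup.mem_zpowers_iff]
      refine ⟨k, ?_⟩
      have : g⁻¹ * w * g = g⁻¹ * w * g⁻¹⁻¹ := by rw [inv_inv]
      rw [this, conj_zpow, hk]
      group
  have hWC : Subgroup.zpowers w₁ ≤ Subgroup.centralizer ({y} : Set G) := by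
    rw [Subgroup.zpowers_le, Subgroup.mem_centralizer_iff]
    intro h hh
    rw [Set.mem_singleton_iff] at hh
    subst hh
    obtain ⟨k, hk⟩ := Subgroup.mem_zpowers_iff.1 hyw
    rw [← hk]
    exact ((Commute.refl w₁).zpow_left k).eq
  have hrel : (Subgroup.zpowers w₁).relIndex (Subgroup.centralizer ({y} : Set G)) ∣ 2 := by
    have h1 : (Subgroup.zpowers w₁).relIndex (Subgroup.centralizer ({y} : Set G)) *
        Nat.card (Subgroup.zpowers w₁) = Nat.card (Subgroup.centralizer ({y} : Set G)) := by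
      have h2 := Subgroup.relIndex_mul_relIndex ⊥ (Subgroup.zpowers w₁)
        (Subgroup.centralizer ({y} : Set G)) bot_le hWC
      rw [Subgroup.relIndex_bot_left, Subgroup.relIndex_bot_left] at h2
      rw [mul_comm]; exact h2
    rw [Nat.card_zpowers, hw₁] at h1
    rw [← h1] at hB
    exact Nat.dvd_of_mul_dvd_mul_right (Nat.pos_of_ne_zero hm0) hB
  have hsq : ∀ u ∈ Subgroup.centralizer ({y} : Set G), u * u ∈ Subgroup.zpowers w₁ := by
    intro u hu
    rcases (Nat.dvd_prime Nat.prime_two).1 hrel with h | h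
    · have h1 : (Subgroup.zpowers w₁).subgroupOf (Subgroup.centralizer ({y} : Set G)) = ⊤ :=
        Subgroup.index_eq_one.1 h
      have h2 : (⟨u * u, mul_mem hu hu⟩ : Subgroup.centralizer ({y} : Set G)) ∈
          (Subgroup.zpowers w₁).subgroupOf (Subgroup.centralizer ({y} : Set G)) := by
        rw [h1]; trivial
      exact Subgroup.mem_subgroupOf.1 h2
    · have h2 := Subgroup.mul_self_mem_of_index_two (H := (Subgroup.zpowers w₁).subgroupOf
        (Subgroup.centralizer ({y} : Set G))) h ⟨u, hu⟩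
      exact Subgroup.mem_subgroupOf.1 h2
  have hUW : U ≤ Subgroup.zpowers w₁ := by
    intro u hu
    have ho : Odd (orderOf u) := by
      have h1 : orderOf u ∣ Nat.card U := by
        have := orderOf_dvd_natCard (⟨u, hu⟩ : U)
        rwa [Subgroup.orderOf_mk] at this
      exact Odd.of_dvd_nat hodd h1
    obtain ⟨k, hk⟩ := ho
    have h1 : u = (u * u) ^ (k + 1) := by
      rw [← pow_two, ← pow_mul]
      have : 2 * (k + 1) = orderOf u + 1 := by omega
      rw [this, pow_succ, pow_orderOf_eq_one, one_mul]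
    rw [h1]
    exact Subgroup.pow_mem _ (hsq u (hU hu)) _
  exact isCyclic_of_injective (Subgroup.inclusion hUW) (Subgroup.inclusion_injective hUW)

/- HC -/
theorem hc (H : Hyp G p q) {y : G} {r : ℕ} (hr : r.Prime) (hrp : r ≠ p) (hr2 : r ≠ 2)
    (hy : orderOf y = r) (U : Subgroup G) (hU : U ≤ Subgroup.centralizer {y})
    (hodd : Odd (Nat.card U)) : IsCyclic U := by
  obtain ⟨f, _, hq⟩ := H.hq
  obtain ⟨w1, hw1⟩ := H.ex1
  obtain ⟨w2, hw2⟩ := H.ex2
  rcases H.ord y with h | h | h
  · rw [hy] at h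
    exact absurd ((Nat.prime_dvd_prime_iff_eq hr H.hp).1 h) hrp
  · rw [hy] at h
    exact hc_core H.hp hq H.card' H.coprime_ab H.not_dvd_a H.ord w1 hw1 hr hrp hr2 h hy U hU hodd
  · rw [hy] at h
    refine hc_core (m := (q + 1) / 2) (m' := (q - 1) / 2) H.hp hq ?_ H.coprime_ab.symm H.not_dvd_b
      ?_ w2 hw2 hr hrp hr2 h hy U hU hodd
    · rw [H.card']; ring
    · intro x
      rcases H.ord x with h | h | h
      · exact Or.inl h
      · exact Or.inr (Or.inr h)
      · exact Or.inr (Or.inl h)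

end Cfsg.Agent.Lib.Helper73.SPO
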