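import Cfsg.Agent.Lib.Helper73.SPO.CNT1

/-!
# Ladder SPO (S3421), rung NRN (core, with `card_quot` as a hypothesis):
no normal subgroup is regular on the cosets of `N(P)`.
-/

set_option autoImplicit false

namespace Cfsg.Agent.Lib.Helper73.SPO

variable {G : Type*} [Group G] [Finite G] {p q : ℕ}

theorem no_regular_of [Fact p.Prime] (H : Hyp G p q) (P : Sylow p G)
    (hcq : Nat.card (G ⧸ Subgroup.normalizer ((P : Subgroup G) : Set G)) = q + 1)
    (E : Subgroup G) (hE : E.Normal)
    (htr : MulAction.IsPretransitive E (G ⧸ Subgroup.normalizer ((P : Subgroup G) : Set G))) :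
    ∃ a : G ⧸ Subgroup.normalizer ((P : Subgroup G) : Set G), MulAction.stabilizer E a ≠ ⊥ := by
  classical
  by_contra hcon
  push_neg at hcon
  set N : Subgroup G := Subgroup.normalizer ((P : Subgroup G) : Set G) with hN
  have hq5 := H.hq5
  have hcP : Nat.card (P : Subgroup G) = q := card_sylow H P
  -- |E| = q + 1
  have hcE : Nat.card E = q + 1 := by
    rw [← hcq]
    apply Nat.card_eq_of_bijective (fun e : E => e • ((1 : G) : G ⧸ N))
    constructor
    · intro e e' hee
      have h1 : e'⁻¹ * e ∈ MulAction.stabilizer E ((1 : G) : G ⧸ N) := by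
        rw [MulAction.mem_stabilizer_iff, mul_smul]
        have : e • ((1 : G) : G ⧸ N) = e' • ((1 : G) : G ⧸ N) := hee
        rw [this, inv_smul_smul]
      rw [hcon, Subgroup.mem_bot] at h1
      exact (inv_mul_eq_one.mp h1).symm
    · intro y
      exact MulAction.exists_smul_eq E _ y
  -- an involution of E
  have h2E : 2 ∣ Nat.card E := by
    rw [hcE, ← H.two_mul_b]; exact Dvd.intro _ rfl
  obtain ⟨s', hs'⟩ := exists_prime_orderOf_dvd_card' 2 h2E
  set s : G := (s' : G) with hs
  have hso : orderOf s = 2 := by rw [hs, Subgroup.orderOf_coe]; exact hs'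
  have hsE : s ∈ E := s'.2
  have hs1 : s ≠ 1 := by
    intro h; rw [h, orderOf_one] at hso; omega
  have hs2 : s ^ 2 = 1 := by rw [← hso]; exact pow_orderOf_eq_one s
  have h2p : Nat.Coprime 2 p := by
    rw [Nat.coprime_primes Nat.prime_two H.hp]; exact fun h => H.hp2 h.symm
  -- the conjugation map
  have hinj : Function.Injective (fun u : (P : Subgroup G) => (u : G) * s * (u : G)⁻¹) := by
    intro u v huv
    have huv' : (u : G) * s * (u : G)⁻¹ = (v : G) * s * (v : G)⁻¹ := huv
    by_contra hne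
    have hx1 : (v : G)⁻¹ * (u : G) ≠ 1 := by
      intro h
      apply hne
      exact Subtype.ext (inv_mul_eq_one.mp h).symm
    have hxP : (v : G)⁻¹ * (u : G) ∈ (P : Subgroup G) :=
      (P : Subgroup G).mul_mem ((P : Subgroup G).inv_mem v.2) u.2
    apply hs1
    refine H.cpp' (H.pow_p_of_mem P.2 hxP) hx1 ?_ (by rw [hso]; exact h2p)
    change (v : G)⁻¹ * (u : G) * s = s * ((v : G)⁻¹ * (u : G))
    calc (v : G)⁻¹ * (u : G) * s = (v : G)⁻¹ * ((u : G) * s * (u : G)⁻¹) * (u : G) := by group
      _ = (v : G)⁻¹ * ((v : G) * s * (v : G)⁻¹) * (u : G) := by rw [huv']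
      _ = s * ((v : G)⁻¹ * (u : G)) := by group
  have himg : Set.range (fun u : (P : Subgroup G) => (u : G) * s * (u : G)⁻¹)
      = (E : Set G) \ {1} := by
    apply Set.eq_of_subset_of_ncard_le
    · rintro _ ⟨u, rfl⟩
      refine ⟨hE.conj_mem s hsE u, ?_⟩
      intro h
      exact hs1 (conj_eq_one_iff.mp h)
    · rw [Set.ncard_diff_singleton_of_mem E.one_mem, ← Nat.card_coe_set_eq (Set.range _),
        Nat.card_range_of_injective hinj, hcP]
      have : (E : Set G).ncard = Nat.card E := by rw [← Nat.card_coe_set_eq]; rfl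
      rw [this, hcE]; omega
    · exact Set.toFinite _
  have hexp : ∀ e ∈ E, e ^ 2 = 1 := by
    intro e he
    by_cases he1 : e = 1
    · rw [he1, one_pow]
    · have : e ∈ (E : Set G) \ {1} := ⟨he, he1⟩
      rw [← himg] at this
      obtain ⟨u, rfl⟩ := this
      change ((u : G) * s * (u : G)⁻¹) ^ 2 = 1
      rw [conj_pow, hs2]; simp
  -- an element of order (q+1)/2
  obtain ⟨w, hw⟩ := H.ex2
  have h1 : w ^ E.index ∈ E := Subgroup.pow_index_mem E w
  have h2 : w ^ (E.index * 2) = 1 := by rw [pow_mul]; exact hexp _ h1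
  have h3 : (q + 1) / 2 ∣ E.index * 2 := by rw [← hw]; exact orderOf_dvd_of_pow_eq_one h2
  have h4 : E.index * 2 = q * (q - 1) := by
    have h5 := E.card_mul_index
    rw [hcE] at h5
    have h6 := H.card
    rw [← h5] at h6
    have h7 : (q + 1) * (E.index * 2) = (q + 1) * (q * (q - 1)) := by
      calc (q + 1) * (E.index * 2) = 2 * ((q + 1) * E.index) := by ring
        _ = q * (q - 1) * (q + 1) := h6
        _ = (q + 1) * (q * (q - 1)) := by ring
    exact Nat.eq_of_mul_eq_mul_left (by omega) h7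
  rw [h4, ← H.two_mul_a] at h3
  have hbq : Nat.Coprime ((q + 1) / 2) q := by
    have h8 : Nat.Coprime (q + 1) q := by simp
    exact Nat.Coprime.coprime_dvd_left (Dvd.intro_left 2 H.two_mul_b) h8
  have h9 : (q + 1) / 2 ∣ 2 * ((q - 1) / 2) := hbq.dvd_of_dvd_mul_left h3
  have h10 : (q + 1) / 2 ∣ 2 := H.coprime_ab.symm.dvd_of_dvd_mul_right h9
  have h11 := Nat.le_of_dvd (by norm_num) h10
  omega

end Cfsg.Agent.Lib.Helper73.SPO
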